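import Mathlib
import Cfsg.Agent.Lib.Perm.PrimeDegree3
import Cfsg.Agent.Lib.Core.HallSZ
import Cfsg.Agent.Lib.Char.Inner

/-! Groups of prime degree `p` whose Sylow `p`-normaliser is `P·E` with `E` a TI subgroup of index
two in its normaliser. -/

set_option autoImplicit false

open MulAction

namespace H88

/-- the configuration -/
structure TIE (p : ℕ) [Fact p.Prime] (G α : Type*) [Group G] [MulAction G α] where
  c : G
  e : ZMod p ≃ α
  E : Subgroup G
  a : E →* (ZMod p)ˣ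
  hc : ∀ j, c • e j = e (j + 1)
  ha : ∀ (g : E) j, (g : G) • e j = e (a g * j)
  hne : E ≠ ⊥
  hsq : ¬ p ^ 2 ∣ Nat.card G
  hsup : Subgroup.zpowers c ⊔ E = Subgroup.normalizer (Subgroup.zpowers c : Set G)
  hNE : Nat.card (Subgroup.normalizer (E : Set G)) = 2 * Nat.card E
  hTI : ∀ g, g ∉ Subgroup.normalizer (E : Set G) → ∀ x ∈ E, g * x * g⁻¹ ∈ E → x = 1

variable {p : ℕ} [hp : Fact p.Prime] {G α : Type*} [Group G] [MulAction G α] [FaithfulSMul G α]

theorem exists_TIE [Finite G] [IsPretransitive G α] (hα : Nat.card α = p) (P : Sylow p G)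
    (E : Subgroup G) (hne : E ≠ ⊥)
    (hPE : (P : Subgroup G) ⊔ E = Subgroup.normalizer ((P : Subgroup G) : Set G))
    (hPE' : (P : Subgroup G) ⊓ E = ⊥)
    (hNE : Nat.card (Subgroup.normalizer (E : Set G)) = 2 * Nat.card E)
    (hTI : ∀ g : G, g ∉ Subgroup.normalizer (E : Set G) →
      E ⊓ E.map (MulAut.conj g).toMonoidHom = ⊥) : Nonempty (TIE p G α) := by
  haveI : Finite α := Nat.finite_of_card_ne_zero (hα ▸ hp.out.ne_zero)
  obtain ⟨c, e0, hP, hc0⟩ := H26.exists_frame_sylow hα P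
  have hcard := H26.card_sylow_prime_degree hα P
  have hco : orderOf c = p := by rw [← Nat.card_zpowers, ← hP, hcard]
  have hcp : c ^ p = 1 := by rw [← hco, pow_orderOf_eq_one]
  rw [hP] at hPE hPE'
  have hEN : ∀ g ∈ E, g * c * g⁻¹ ∈ Subgroup.zpowers c := fun g hg =>
    (Subgroup.mem_normalizer_iff.1 (hPE ▸ Subgroup.mem_sup_right hg) c).1 (Subgroup.mem_zpowers c)
  have key : ∀ e : ZMod p ≃ α, (∀ j, c • e j = e (j + 1)) → ∃ φ : E →* (ZMod p)ˣ,
      (∀ g, φ g = 1 → g = 1) ∧ ∀ g : E, ∃ b : ZMod p, ∀ j, (g : G) • e j = e (φ g * j + b) := by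
    intro e hc
    obtain ⟨φ, hφ⟩ := H26.exists_slopeHom (G := E) e fun g => H26.affine_of_conj hc (hEN g g.2)
    refine ⟨φ, fun g hg => Subtype.ext ?_, hφ⟩
    obtain ⟨b, hb⟩ := hφ g
    have h1 : (g : G) ∈ Subgroup.zpowers c ⊓ E :=
      ⟨(H26.frame_mem_zpowers hc).2 ⟨b, fun j => by
        have := hb j
        rwa [hg, Units.val_one, one_mul] at this⟩, g.2⟩
    rwa [hPE', Subgroup.mem_bot] at h1
  obtain ⟨φ0, h1, h2⟩ := key e0 hc0
  obtain ⟨g0, hg0⟩ := (Subgroup.ne_bot_iff_exists_ne_one.1 hne)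
  obtain ⟨b0, hb0⟩ := h2 g0
  have hm : (1 : ZMod p) - φ0 g0 ≠ 0 := fun h => hg0 (h1 g0 (Units.ext (sub_eq_zero.1 h).symm))
  have hfix : ∀ j, (g0 : G) • e0 j = e0 j ↔ j = b0 / (1 - φ0 g0) := fun j => by
    rw [hb0, e0.apply_eq_iff_eq, eq_div_iff hm]
    constructor <;> intro h <;> linear_combination -h
  have hfixE : ∀ g : E, (g : G) • e0 (b0 / (1 - φ0 g0)) = e0 (b0 / (1 - φ0 g0)) := by
    intro g
    obtain ⟨j, hj⟩ := e0.surjective ((g : G) • e0 (b0 / (1 - φ0 g0)))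
    have hcomm : g0 * g = g * g0 := by
      rw [← mul_inv_eq_one]
      apply h1
      rw [map_mul, map_inv, map_mul, map_mul, mul_comm (φ0 g0), mul_inv_cancel]
    have h3 : (g0 : G) • e0 j = e0 j := by
      rw [hj, smul_smul, ← Subgroup.coe_mul, hcomm, Subgroup.coe_mul, ← smul_smul,
        (hfix _).2 rfl]
    rw [← hj, (hfix j).1 h3]
  obtain ⟨e, he0, hc⟩ := H26.exists_frame hα hcp (a := e0 (b0 / (1 - φ0 g0))) (by
    rw [hc0, Ne, e0.apply_eq_iff_eq]; simp)
  obtain ⟨φ, -, h4⟩ := key e hc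
  refine ⟨⟨c, e, E, φ, hc, fun g j => ?_, hne, fun h => ?_, hPE, hNE, fun g hg x hx hgx => ?_⟩⟩
  · obtain ⟨b, hb⟩ := h4 g
    have h5 := hb 0
    rw [he0, hfixE, ← he0, mul_zero, zero_add, e.apply_eq_iff_eq] at h5
    rw [hb, ← h5, add_zero]
  · have h5 := P.pow_dvd_card_of_pow_dvd_card h
    rw [hcard, pow_two] at h5
    exact absurd (Nat.le_of_dvd hp.out.pos h5) (by have := hp.out.two_le; nlinarith)
  · have h5 : g * x * g⁻¹ ∈ E ⊓ E.map (MulAut.conj g).toMonoidHom := ⟨hgx, x, hx, rfl⟩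
    rw [hTI g hg, Subgroup.mem_bot] at h5
    simpa using h5

namespace TIE

variable (T : TIE p G α)

theorem a_eq_one (g : T.E) (h : T.a g = 1) : g = 1 :=
  Subtype.ext (H26.frame_ext T.e fun j => by rw [T.ha, h]; simp)

theorem a_injective : Function.Injective T.a := (injective_iff_map_eq_one _).2 T.a_eq_one

theorem comm (g h : T.E) : g * h = h * g := T.a_injective (by rw [map_mul, map_mul, mul_comm])

theorem isCyclic : IsCyclic T.E := isCyclic_of_injective T.a T.a_injective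

theorem orderOf_c : orderOf T.c = p := by
  refine orderOf_eq_prime (H26.frame_ext T.e fun j => by rw [H26.frame_pow T.hc]; simp) fun h => ?_
  have := T.hc 0
  rw [h, one_smul, T.e.apply_eq_iff_eq] at this
  simp at this

theorem conj_cp (g : T.E) (i : ZMod p) :
    g * T.c ^ i.val * (g : G)⁻¹ = T.c ^ (T.a g * i : ZMod p).val :=
  H26.frame_ext T.e fun j => by
    rw [mul_smul, mul_smul, ← Subgroup.coe_inv, T.ha, H26.frame_pow_val T.hc, T.ha,
      H26.frame_pow_val T.hc, map_inv, mul_add, Units.mul_inv_cancel_left]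

theorem conj_c (g : T.E) : g * T.c * (g : G)⁻¹ = T.c ^ (T.a g : ZMod p).val := by
  have := T.conj_cp g 1
  rwa [ZMod.val_one, pow_one, mul_one] at this

omit [FaithfulSMul G α] in
theorem E_le : T.E ≤ Subgroup.normalizer (Subgroup.zpowers T.c : Set G) := T.hsup ▸ le_sup_right

omit [FaithfulSMul G α] in
theorem exists_mul [Finite G] : ∀ n ∈ Subgroup.normalizer (Subgroup.zpowers T.c : Set G),
    ∃ i : ℕ, ∃ g ∈ T.E, n = T.c ^ i * g := by
  intro n hn
  rw [← T.hsup, ← SetLike.mem_coe, Subgroup.coe_mul_of_right_le_normalizer_left _ _ T.E_le] at hn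
  obtain ⟨x, hx, g, hg, rfl⟩ := hn
  obtain ⟨i, rfl⟩ := mem_powers_iff_mem_zpowers.mpr hx
  exact ⟨i, g, hg, rfl⟩

theorem fix_iff (g : T.E) (hg : g ≠ 1) (ω : α) : (g : G) • ω = ω ↔ ω = T.e 0 := by
  obtain ⟨j, rfl⟩ := T.e.surjective ω
  rw [T.ha, T.e.apply_eq_iff_eq, T.e.apply_eq_iff_eq]
  refine ⟨fun h => ?_, fun h => by rw [h, mul_zero]⟩
  by_contra h0
  exact hg (T.a_eq_one g (Units.ext (mul_right_cancel₀ h0 (by rw [h, Units.val_one, one_mul]))))

theorem normalizer_fix {n : G} (hn : n ∈ Subgroup.normalizer (T.E : Set G)) : n • T.e 0 = T.e 0 := by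
  obtain ⟨g0, hg0⟩ := (Subgroup.ne_bot_iff_exists_ne_one.1 T.hne)
  have h1 : n * g0 * n⁻¹ ∈ T.E := (Subgroup.mem_normalizer_iff.1 hn g0).1 g0.2
  refine (T.fix_iff ⟨_, h1⟩ (fun h => hg0 (Subtype.ext ?_)) _).1 ?_
  · simpa using congrArg Subtype.val h
  · rw [mul_smul, mul_smul, inv_smul_smul, (T.fix_iff g0 hg0 _).2 rfl]

theorem inf_eq_bot : Subgroup.zpowers T.c ⊓ T.E = ⊥ := by
  rw [eq_bot_iff]
  rintro x ⟨hx, hxE⟩
  obtain ⟨b, hb⟩ := (H26.frame_mem_zpowers T.hc).1 hx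
  have h1 := T.normalizer_fix (Subgroup.le_normalizer hxE)
  rw [hb, T.e.apply_eq_iff_eq, zero_add] at h1
  exact H26.frame_ext T.e fun j => by rw [hb, h1, add_zero, one_smul]

theorem card_N [Finite G] :
    Nat.card (Subgroup.normalizer (Subgroup.zpowers T.c : Set G)) = p * Nat.card T.E := by
  rw [← T.hsup, H3.card_sup_of_inf_eq_bot T.E_le T.inf_eq_bot, Nat.card_zpowers, T.orderOf_c]

theorem exists_t : ∃ t, t * Nat.card T.E = p - 1 := by
  have := Subgroup.card_dvd_of_injective T.a T.a_injective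
  rw [Nat.card_eq_fintype_card (α := (ZMod p)ˣ), ZMod.card_units] at this
  obtain ⟨t, ht⟩ := this
  exact ⟨t, by rw [ht, mul_comm]⟩

omit [FaithfulSMul G α] in
theorem relIndex_two [Finite G] : T.E.relIndex (Subgroup.normalizer (T.E : Set G)) = 2 := by
  have := H3.relIndex_mul_card (Subgroup.le_normalizer (H := T.E))
  rw [T.hNE] at this
  exact Nat.eq_of_mul_eq_mul_right Nat.card_pos this

omit [FaithfulSMul G α] in
theorem mul_mem_iff [Finite G] {x y : G} (hx : x ∈ Subgroup.normalizer (T.E : Set G))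
    (hy : y ∈ Subgroup.normalizer (T.E : Set G)) : x * y ∈ T.E ↔ (x ∈ T.E ↔ y ∈ T.E) :=
  Subgroup.mul_mem_iff_of_index_two T.relIndex_two (a := ⟨x, hx⟩) (b := ⟨y, hy⟩)

omit [FaithfulSMul G α] in
theorem exists_u [Finite G] : ∃ u ∈ Subgroup.normalizer (T.E : Set G), u ∉ T.E := by
  by_contra h
  push Not at h
  have h1 := Subgroup.relIndex_eq_one.2 h
  rw [T.relIndex_two] at h1
  omega

theorem not_affine [Finite G] : ¬ ∀ g : G, ∃ m b : ZMod p, ∀ j, g • T.e j = T.e (m * j + b) := by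
  intro h
  obtain ⟨u, hu, huE⟩ := T.exists_u
  obtain ⟨i, g, hg, rfl⟩ := T.exists_mul u (Subgroup.mem_normalizer_fintype fun x hx =>
    H26.conj_mem_of_affine T.hc (h u) hx)
  have h1 := T.normalizer_fix hu
  rw [mul_smul, T.normalizer_fix (Subgroup.le_normalizer hg), H26.frame_pow T.hc,
    T.e.apply_eq_iff_eq, zero_add] at h1
  have h2 : T.c ^ i = 1 := H26.frame_ext T.e fun j => by
    rw [H26.frame_pow T.hc, h1, add_zero, one_smul]
  exact huE (by rwa [h2, one_mul])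

theorem sup_eq_top [Finite G] (K : Subgroup G) [K.Normal] (hK : K ≠ ⊥) : K ⊔ T.E = ⊤ := by
  haveI := H26.frame_isPretransitive T.hc
  have hα : Nat.card α = p := by rw [← Nat.card_congr T.e, Nat.card_zmod]
  have hP : IsPGroup p (Subgroup.zpowers T.c) :=
    IsPGroup.of_card (n := 1) (by rw [Nat.card_zpowers, T.orderOf_c, pow_one])
  obtain ⟨P, hP'⟩ := hP.exists_le_sylow
  have h1 : Subgroup.zpowers T.c = P := Subgroup.eq_of_le_of_card_ge hP' (by
    rw [H26.card_sylow_prime_degree hα P, Nat.card_zpowers, T.orderOf_c])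
  have h2 := H26.sylow_le_normal_prime_degree hα P K hK
  have h3 := P.normalizer_sup_eq_top' h2
  change Subgroup.normalizer ((P : Subgroup G) : Set G) ⊔ K = ⊤ at h3
  rw [← h1] at h2 h3
  rw [eq_top_iff, ← h3, ← T.hsup]
  exact sup_le (sup_le (h2.trans le_sup_left) le_sup_right) le_sup_left

include T in
theorem isSimpleGroup [Finite G] (h : commutator G = ⊤) : IsSimpleGroup G := by
  obtain ⟨g0, hg0⟩ := (Subgroup.ne_bot_iff_exists_ne_one.1 T.hne)
  haveI : Nontrivial G := ⟨g0, 1, fun h => hg0 (Subtype.ext h)⟩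
  refine ⟨fun K _ => or_iff_not_imp_left.2 fun hK => ?_⟩
  rw [eq_top_iff, ← h]
  exact Subgroup.Normal.commutator_le_of_self_sup_commutative_eq_top (T.sup_eq_top K hK)
    ⟨⟨T.comm⟩⟩

/-- transfer: elements of `N(E) ∖ E` invert `E` -/
theorem inverts [Finite G] (h : commutator G = ⊤) {u : G}
    (hu : u ∈ Subgroup.normalizer (T.E : Set G)) (huE : u ∉ T.E) {x : G} (hx : x ∈ T.E) :
    u⁻¹ * x * u = x⁻¹ := by
  classical
  set N := Subgroup.normalizer (T.E : Set G) with hN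
  have hconj : ∀ g ∈ N, g⁻¹ * x * g ∈ T.E := fun g hg => by
    simpa using (Subgroup.mem_normalizer_iff.1 (N.inv_mem hg) x).1 hx
  have h0 : MonoidHom.transfer T.a x = 1 :=
    Abelianization.commutator_subset_ker (MonoidHom.transfer T.a) (h ▸ trivial)
  letI := Fintype.ofFinite (Quotient (orbitRel (Subgroup.zpowers x) (G ⧸ T.E)))
  have hfix : ∀ g ∈ N, x • (g : G ⧸ T.E) = g := fun g hg => by
    rw [MulAction.Quotient.smul_coe, eq_comm, QuotientGroup.eq, smul_eq_mul, ← mul_assoc]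
    exact hconj g hg
  have hout : ∀ g ∈ N, (Quotient.mk (orbitRel (Subgroup.zpowers x) (G ⧸ T.E))
      (g : G ⧸ T.E)).out = g := fun g hg => by
    obtain ⟨⟨_, m, rfl⟩, hm⟩ : (Quotient.mk (orbitRel (Subgroup.zpowers x) (G ⧸ T.E))
      (g : G ⧸ T.E)).out ∈ orbit (Subgroup.zpowers x) (g : G ⧸ T.E) :=
      orbitRel_apply.1 (Quotient.mk_out (s := orbitRel (Subgroup.zpowers x) (G ⧸ T.E)) _)
    rw [← hm]
    exact (Subgroup.zpow_mem (stabilizer G (g : G ⧸ T.E)) (hfix g hg) m)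
  have hval : ∀ g (hg : g ∈ N), ∀ q : Quotient (orbitRel (Subgroup.zpowers x) (G ⧸ T.E)),
      q = Quotient.mk _ (g : G ⧸ T.E) →
      T.a ⟨q.out.out⁻¹ * x ^ Function.minimalPeriod (x • ·) q.out * q.out.out,
        QuotientGroup.out_conj_pow_minimalPeriod_mem T.E x q.out⟩ = T.a ⟨_, hconj g hg⟩ := by
    rintro g hg q rfl
    congr 1
    apply Subtype.ext
    simp only
    rw [hout g hg, Function.minimalPeriod_eq_one_iff_isFixedPt.2 (hfix g hg), pow_one]
    obtain ⟨y, hy⟩ := QuotientGroup.mk_out_eq_mul T.E g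
    have h1 := congrArg Subtype.val (T.comm ⟨_, hconj g hg⟩ y)
    simp only [Subgroup.coe_mul] at h1
    rw [hy, mul_inv_rev, mul_assoc, mul_assoc, ← mul_assoc x, ← mul_assoc g⁻¹, ← mul_assoc g⁻¹, h1,
      inv_mul_cancel_left]
  rw [MonoidHom.transfer_eq_prod_quotient_orbitRel_zpowers_quot,
    Fintype.prod_eq_mul (Quotient.mk _ ((1 : G) : G ⧸ T.E)) (Quotient.mk _ (u : G ⧸ T.E)),
    hval 1 N.one_mem _ rfl, hval u hu _ rfl, ← map_mul] at h0
  · have h1 := congrArg Subtype.val (T.a_eq_one _ h0)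
    simp only [Subgroup.coe_mul, inv_one, one_mul, mul_one, Subgroup.coe_one] at h1
    exact eq_inv_of_mul_eq_one_right h1
  · intro h1
    have h2 := hout u hu
    rw [← h1, hout 1 N.one_mem, QuotientGroup.eq] at h2
    exact huE (by simpa using h2)
  · rintro q ⟨h1, h2⟩
    have h3 : q.out.out ∉ N := fun h3 => by
      have h4 : q = Quotient.mk _ (q.out.out : G ⧸ T.E) := by
        rw [QuotientGroup.out_eq', Quotient.out_eq]
      by_cases h5 : q.out.out ∈ T.E
      · refine h1 (h4.trans (congrArg _ (QuotientGroup.eq.2 ?_)))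
        simpa using h5
      · refine h2 (h4.trans (congrArg _ (QuotientGroup.eq.2 ?_)))
        rw [T.mul_mem_iff (N.inv_mem h3) hu, inv_mem_iff]
        tauto
    have h4 := T.hTI q.out.out⁻¹ (fun h => h3 (inv_mem_iff.1 h)) _
      (T.E.pow_mem hx (Function.minimalPeriod (x • ·) q.out))
      (by simpa using QuotientGroup.out_conj_pow_minimalPeriod_mem T.E x q.out)
    rw [← map_one T.a]
    congr 1
    apply Subtype.ext
    simp [h4]

end TIE

end H88
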