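import Mathlib
import Cfsg.Agent.Lib.Prim88.TIE

/-! The case of an even complement `E`: the group has order 60. -/

set_option autoImplicit false

open MulAction

namespace H88.TIE

variable {p : ℕ} [hp : Fact p.Prime] {G α : Type*} [Group G] [MulAction G α] [FaithfulSMul G α]
  [Finite G] (T : TIE p G α)

theorem card_ne_pred (h : commutator G = ⊤) (hp2 : p ≠ 2) : Nat.card T.E ≠ p - 1 := by
  classical
  intro he
  letI : Fintype α := Fintype.ofEquiv _ T.e
  have hsurj : Function.Surjective T.a := ((Nat.bijective_iff_injective_and_card _).2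
    ⟨T.a_injective, by rw [he, Nat.card_eq_fintype_card, ZMod.card_units]⟩).2
  obtain ⟨g0, hg0⟩ := T.isCyclic.exists_generator
  have hg1 : g0 ≠ 1 := fun h1 => T.hne (by
    rw [eq_bot_iff]
    intro x hx
    obtain ⟨m, hm⟩ := hg0 ⟨x, hx⟩
    simp only [h1, one_zpow] at hm
    exact (congrArg Subtype.val hm).symm)
  have hfix : ∀ ω, toPerm (g0 : G) ω = ω ↔ ω = T.e 0 := T.fix_iff g0 hg1
  have hcyc : (toPerm (g0 : G) : Equiv.Perm α).IsCycle := by
    refine ⟨T.e 1, fun h1 => by simpa using (hfix _).1 h1, fun y hy => ?_⟩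
    obtain ⟨j, rfl⟩ := T.e.surjective y
    have hj : j ≠ 0 := fun h1 => hy ((hfix _).2 (by rw [h1]))
    obtain ⟨g, hg⟩ := hsurj (Units.mk0 j hj)
    obtain ⟨m, rfl⟩ := hg0 g
    refine ⟨m, ?_⟩
    have h1 := T.ha (g0 ^ m) 1
    simp only at hg
    rw [hg, Units.val_mk0, mul_one] at h1
    rw [← h1]
    change ((toPermHom G α g0) ^ m) _ = _
    rw [← map_zpow]
    rfl
  have hsupp : (toPerm (g0 : G) : Equiv.Perm α).support = Finset.univ.erase (T.e 0) := by
    ext ω
    simp only [Equiv.Perm.mem_support, Ne, hfix, Finset.mem_erase, Finset.mem_univ, and_true]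
  have h1 : Equiv.Perm.sign (toPerm (g0 : G) : Equiv.Perm α) = 1 :=
    Abelianization.commutator_subset_ker (Equiv.Perm.sign.comp (toPermHom G α))
      (h ▸ trivial : (g0 : G) ∈ commutator G)
  rw [hcyc.sign, hsupp, Finset.card_erase_of_mem (Finset.mem_univ _), Finset.card_univ,
    ← Fintype.card_congr T.e, ZMod.card, (hp.out.even_sub_one hp2).neg_one_pow] at h1
  exact absurd h1 (by decide)

theorem even_case (h : commutator G = ⊤) (he : Even (Nat.card T.E)) :
    p = 5 ∧ Nat.card G = 60 := by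
  classical
  letI := Fintype.ofFinite G
  obtain ⟨t, ht⟩ := T.exists_t
  have hp1 := hp.out.one_lt
  have hp2 : p ≠ 2 := by
    rintro rfl
    rw [Nat.eq_one_of_mul_eq_one_left ht] at he
    exact absurd he (by decide)
  have hp3 : 2 < p := by omega
  haveI : Fact (2 < p) := ⟨hp3⟩
  haveI := Fact.mk Nat.prime_two
  obtain ⟨z, hz⟩ := exists_prime_orderOf_dvd_card' 2 he.two_dvd
  have hinv : ∀ y : T.E, y ≠ 1 → y * y = 1 → T.a y = -1 := fun y h1 h2 => by
    have h3 : (T.a y : ZMod p) * T.a y = 1 := by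
      rw [← Units.val_mul, ← map_mul, h2, map_one, Units.val_one]
    exact Units.ext ((mul_self_eq_one_iff.1 h3).resolve_left fun h4 =>
      h1 (T.a_eq_one y (Units.ext h4)))
  have hz1 : z ≠ 1 := fun h1 => by rw [h1, orderOf_one] at hz; omega
  have hz2 : z * z = 1 := by rw [← pow_two, ← hz, pow_orderOf_eq_one]
  have hz2' : (z : G) * z = 1 := congrArg Subtype.val hz2
  have hzi : (z : G)⁻¹ = z := inv_eq_of_mul_eq_one_right hz2'
  have hza : ∀ j, (z : G) • T.e j = T.e (-j) := fun j => by rw [T.ha, hinv z hz1 hz2]; simp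
  have h3 := H26.three_trans_of_reflection T.hc T.not_affine (t := (z : G)) (b := 0)
    (fun j => by rw [hza, zero_sub])
  have hC : Subgroup.centralizer ({(z : G)} : Set G) = Subgroup.normalizer (T.E : Set G) := by
    ext g
    rw [Subgroup.mem_centralizer_singleton_iff]
    constructor
    · intro hg
      by_contra h1
      exact hz1 (Subtype.ext (T.hTI g h1 z z.2 (by rw [hg, mul_inv_cancel_right]; exact z.2)))
    · intro hg
      have h1 : g * z * g⁻¹ ∈ T.E := (Subgroup.mem_normalizer_iff.1 hg z).1 z.2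
      have h2 : (⟨_, h1⟩ : T.E) = z := T.a_injective (by
        rw [hinv z hz1 hz2]
        refine hinv _ (fun h4 => hz1 (Subtype.ext ?_)) (Subtype.ext ?_)
        · simpa using congrArg Subtype.val h4
        · simp [hz2'])
      exact mul_inv_eq_iff_eq_mul.1 (congrArg Subtype.val h2)
  have hneg : ∀ j : ZMod p, j ≠ 0 → j ≠ -j := fun j hj h1 => hj (by
    have h2 : (2 : ZMod p) * j = 0 := by linear_combination h1
    refine (mul_eq_zero.1 h2).resolve_left fun h4 => ?_
    exact Nat.not_dvd_of_pos_of_lt two_pos hp3 ((ZMod.natCast_eq_zero_iff 2 p).1 h4))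
  have n01 : T.e 0 ≠ T.e 1 := T.e.injective.ne zero_ne_one
  have n02 : T.e 0 ≠ T.e (-1) := T.e.injective.ne (neg_ne_zero.2 one_ne_zero).symm
  have n12 : T.e 1 ≠ T.e (-1) := T.e.injective.ne (hneg 1 one_ne_zero)
  let F : α → α → α → Finset G := fun x y w =>
    Finset.univ.filter fun g => g • x = T.e 0 ∧ g • y = T.e 1 ∧ g • w = T.e (-1)
  have hF : ∀ x y w g, g ∈ F x y w ↔ g • x = T.e 0 ∧ g • y = T.e 1 ∧ g • w = T.e (-1) :=
    fun x y w g => by simp [F]
  set m := (F (T.e 0) (T.e 1) (T.e (-1))).card with hm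
  have hFc : ∀ x y w, x ≠ y → x ≠ w → y ≠ w → (F x y w).card = m := by
    intro x y w h1 h2 h4
    obtain ⟨g0, k1, k2, k3⟩ := H26.trans3 h3 h1 h2 h4 n01 n02 n12
    refine (Finset.card_equiv (Equiv.mulRight g0) fun g => ?_).symm
    rw [hF, hF, Equiv.coe_mulRight, mul_smul, mul_smul, mul_smul, k1, k2, k3]
  have hm0 : 0 < m := Finset.card_pos.2 ⟨1, by simp [hF]⟩
  let S := F (T.e 0) (T.e (-1)) (T.e 1)
  let A := Finset.univ.filter fun x : G => x * z * x⁻¹ ∈ S
  have hA1 : A.card = (p - 1) * m := by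
    rw [Finset.card_eq_sum_card_fiberwise (f := fun x => T.e.symm (x⁻¹ • T.e 1))
      (t := Finset.univ.erase 0), Finset.sum_const_nat (m := m),
      Finset.card_erase_of_mem (Finset.mem_univ _), Finset.card_univ, ZMod.card]
    · intro j hj
      have hj0 : j ≠ 0 := (Finset.mem_erase.1 hj).1
      rw [← hFc (T.e 0) (T.e j) (T.e (-j)) (T.e.injective.ne hj0.symm)
        (T.e.injective.ne (neg_ne_zero.2 hj0).symm) (T.e.injective.ne (hneg j hj0))]
      congr 1
      ext x
      simp only [A, S, Finset.mem_filter, Finset.mem_univ, true_and, hF, Equiv.symm_apply_eq,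
        mul_smul]
      constructor
      · rintro ⟨⟨k1, -, k3⟩, k4⟩
        rw [k4, hza] at k3
        rw [smul_eq_iff_eq_inv_smul, T.fix_iff z hz1, inv_smul_eq_iff] at k1
        exact ⟨k1.symm, (inv_smul_eq_iff.1 k4).symm, k3⟩
      · rintro ⟨k1, k2, k3⟩
        have k4 := inv_smul_eq_iff.2 k1.symm
        have k5 := inv_smul_eq_iff.2 k2.symm
        have k6 := inv_smul_eq_iff.2 k3.symm
        exact ⟨⟨by rw [k4, hza, neg_zero, k1], by rw [k6, hza, neg_neg, k2],
          by rw [k5, hza, k3]⟩, k5⟩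
    · intro x hx
      simp only [A, S, Finset.coe_filter, Finset.mem_univ, true_and, Set.mem_setOf_eq, hF,
        mul_smul] at hx
      simp only [Finset.coe_erase, Finset.coe_univ, Set.mem_diff, Set.mem_univ, true_and,
        Set.mem_singleton_iff, Equiv.symm_apply_eq]
      intro h1
      have k3 := hx.2.2
      rw [h1, hza, neg_zero, ← h1, smul_inv_smul] at k3
      exact n12 k3
  have hA2 : A.card = (S.filter (IsConj (z : G))).card * (2 * Nat.card T.E) := by
    rw [Finset.card_eq_sum_card_fiberwise (f := fun x : G => x * (z : G) * x⁻¹)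
      (t := S.filter (IsConj (z : G))), Finset.sum_const_nat]
    · intro s hs
      obtain ⟨h1, h2⟩ := Finset.mem_filter.1 hs
      rw [← T.hNE, ← hC, ← H6.card_conj_eq h2, Nat.card_eq_fintype_card, Fintype.card_subtype]
      congr 1
      ext x
      simp only [A, Finset.mem_filter, Finset.mem_univ, true_and, and_iff_right_iff_imp]
      rintro rfl
      exact h1
    · intro x hx
      simp only [A, Finset.coe_filter, Finset.mem_univ, true_and, Set.mem_setOf_eq] at hx ⊢
      exact ⟨hx, isConj_iff.2 ⟨x, rfl⟩⟩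
  have hS : S.card = m := hFc _ _ _ n02 n01 n12.symm
  have hle : (S.filter (IsConj (z : G))).card ≤ m := hS ▸ Finset.card_filter_le _ _
  have he0 : 0 < Nat.card T.E := Nat.card_pos
  have h4 : t * m = (S.filter (IsConj (z : G))).card * 2 := by
    refine Nat.eq_of_mul_eq_mul_right he0 ?_
    rw [mul_assoc _ 2, ← hA2, hA1, ← ht]; ring
  have ht2 : t = 2 := by
    have k0 : t ≠ 0 := fun h1 => by rw [h1] at ht; omega
    have k1 : t ≠ 1 := fun h1 => T.card_ne_pred h hp2 (by rw [← ht, h1, one_mul])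
    have k2 : t ≤ 2 := Nat.le_of_mul_le_mul_right (by rw [h4]; omega) hm0
    omega
  have hall := Finset.filter_card_eq (s := S) (p := IsConj (z : G)) (by rw [ht2] at h4; omega)
  have hswap : ∀ (g : G) (x y : α), x ≠ y → g • x = x → g • y ≠ y → g • g • y = y →
      ∀ v, g • v = v → v = x := by
    intro g x y k1 k2 k3 k4 v hv
    have k5 : x ≠ g • y := fun h1 => k1 (by rw [← k2, h1, k4])
    obtain ⟨r, r1, r2, r3⟩ := H26.trans3 h3 k1 k5 k3.symm n01 n02 n12
    have k6 : r * g * r⁻¹ ∈ S := by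
      rw [hF]
      simp only [mul_smul]
      rw [inv_smul_eq_iff.2 r1.symm, inv_smul_eq_iff.2 r2.symm, inv_smul_eq_iff.2 r3.symm, k2, k4]
      exact ⟨r1, r2, r3⟩
    obtain ⟨s, hs⟩ := isConj_iff.1 (hall _ k6)
    have k7 : ∀ v, g • v = v → s⁻¹ • r • v = T.e 0 := fun v hv => (T.fix_iff z hz1 _).1 (by
      rw [eq_inv_smul_iff, ← mul_smul, ← mul_smul, hs, mul_smul, mul_smul, inv_smul_smul, hv])
    exact (smul_left_cancel_iff r).1 ((smul_left_cancel_iff s⁻¹).1 ((k7 v hv).trans (k7 x k2).symm))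
  let K : Subgroup G := stabilizer G (T.e 1) ⊓ stabilizer G (T.e (-1))
  have hKodd : ¬ 2 ∣ Nat.card K := fun h1 => by
    obtain ⟨s, hs⟩ := exists_prime_orderOf_dvd_card' 2 h1
    have k1 : (s : G) * s = 1 := by
      rw [← Subgroup.coe_mul, ← pow_two, ← hs, pow_orderOf_eq_one, Subgroup.coe_one]
    obtain ⟨y, hy⟩ : ∃ y : α, (s : G) • y ≠ y := by
      by_contra k2
      push Not at k2
      have : s = 1 := Subtype.ext (H26.frame_ext T.e fun j => by rw [k2]; simp)
      rw [this, orderOf_one] at hs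
      omega
    exact n12 (hswap s (T.e 1) y (fun k2 => hy (k2 ▸ s.2.1)) s.2.1 hy
      (by rw [← mul_smul, k1, one_smul]) _ s.2.2).symm
  have hzK : ∀ y ∈ K, z * y * (z : G)⁻¹ ∈ K := fun y hy => by
    have k1 : y • T.e 1 = T.e 1 := hy.1
    have k2 : y • T.e (-1) = T.e (-1) := hy.2
    constructor
    · change _ • _ = _
      rw [hzi, mul_smul, mul_smul, hza, k2, hza, neg_neg]
    · change _ • _ = _
      rw [hzi, mul_smul, mul_smul, hza, neg_neg, k1, hza]
  let φ : K →* K := ((MulAut.conj (z : G)).toMonoidHom.comp K.subtype).codRestrict K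
    fun y => hzK y y.2
  have hφ : ∀ y : K, (φ y : G) = z * y * (z : G)⁻¹ := fun _ => rfl
  have hfpf : MonoidHom.FixedPointFree φ := by
    intro y hy
    have k1 : (y : G) ∈ Subgroup.normalizer (T.E : Set G) := by
      rw [← hC, Subgroup.mem_centralizer_singleton_iff]
      exact (mul_inv_eq_iff_eq_mul.1 ((hφ y).symm.trans (congrArg Subtype.val hy))).symm
    have k2 : (y : G) ∈ T.E := by
      obtain ⟨n, hn⟩ := Nat.odd_iff.2 (Nat.two_dvd_ne_zero.1 hKodd)
      have k3 : (y : G) ^ Nat.card K = 1 := by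
        rw [← Subgroup.coe_pow, pow_card_eq_one', Subgroup.coe_one]
      rw [hn, pow_succ, pow_mul, pow_two, mul_eq_one_iff_eq_inv] at k3
      rw [← inv_mem_iff, ← k3]
      exact T.E.pow_mem ((T.mul_mem_iff k1 k1).2 Iff.rfl) n
    by_contra k3
    exact n01 ((T.fix_iff ⟨y, k2⟩ (fun k4 => k3 (Subtype.ext (congrArg (fun s : T.E => (s : G)) k4))) _).1
      y.2.1).symm
  have hcomm := hfpf.commute_all_of_involutive fun y => Subtype.ext (by
    rw [hφ, hφ, hzi, ← mul_assoc, ← mul_assoc, hz2', one_mul, mul_assoc, hz2', mul_one])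
  have hbot : fixingSubgroup G ({T.e 0, T.e 1, T.e (-1)} : Set α) = ⊥ := by
    rw [eq_bot_iff]
    intro y hy
    rw [mem_fixingSubgroup_iff] at hy
    have k0 := hy (T.e 0) (by simp)
    have k1 := hy (T.e 1) (by simp)
    have k2 := hy (T.e (-1)) (by simp)
    refine H26.frame_ext T.e fun j => ?_
    rw [one_smul]
    by_cases j1 : T.e j = T.e 1
    · rw [j1, k1]
    by_cases j2 : T.e j = T.e (-1)
    · rw [j2, k2]
    obtain ⟨r, r1, r2, r3⟩ := H26.trans3 h3 n12 n01.symm n02.symm n12 (Ne.symm j1) (Ne.symm j2)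
    have k3 := congrArg Subtype.val (hcomm ⟨y, k1, k2⟩ ⟨r, r1, r2⟩).eq
    simp only [Subgroup.coe_mul] at k3
    rw [← r3, ← mul_smul, k3, mul_smul, k0]
  have hα : Nat.card α = p := by rw [← Nat.card_congr T.e, Nat.card_zmod]
  haveI : Finite α := Finite.of_equiv _ T.e
  have hn3 : ({T.e 0, T.e 1, T.e (-1)} : Set α).ncard = 3 :=
    Set.ncard_eq_three.2 ⟨_, _, _, n01, n02, n12, rfl⟩
  have hG := IsMultiplyPretransitive.index_of_fixingSubgroup_eq (G := G)
    ({T.e 0, T.e 1, T.e (-1)} : Set α) (hn3 ▸ h3)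
  rw [hbot, Subgroup.index_bot, hn3, hα, mul_comm, ← Nat.descFactorial_eq_factorial_mul_choose] at hG
  simp only [Nat.descFactorial_succ, Nat.descFactorial_zero, Nat.sub_zero, mul_one] at hG
  haveI := H26.frame_isPretransitive T.hc
  have hP : IsPGroup p (Subgroup.zpowers T.c) :=
    IsPGroup.of_card (n := 1) (by rw [Nat.card_zpowers, T.orderOf_c, pow_one])
  obtain ⟨P, hP'⟩ := hP.exists_le_sylow
  have k1 : Subgroup.zpowers T.c = P := Subgroup.eq_of_le_of_card_ge hP' (by
    rw [H26.card_sylow_prime_degree hα P, Nat.card_zpowers, T.orderOf_c])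
  have k2 := card_sylow_modEq_one p G
  rw [P.card_eq_index_normalizer] at k2
  change (Subgroup.normalizer ((P : Subgroup G) : Set G)).index ≡ 1 [MOD p] at k2
  rw [← k1] at k2
  have k3 := (Subgroup.normalizer (Subgroup.zpowers T.c : Set G)).index_mul_card
  rw [T.card_N, hG, ← ht, ht2] at k3
  have k4 : (Subgroup.normalizer (Subgroup.zpowers T.c : Set G)).index = (p - 2) * 2 := by
    refine Nat.eq_of_mul_eq_mul_right (Nat.mul_pos hp.out.pos he0) ?_
    rw [k3]; ring
  rw [k4] at k2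
  obtain ⟨r, rfl⟩ : ∃ r, p = r + 3 := ⟨p - 3, by omega⟩
  have k5 : r + 3 ∣ 5 := by
    have k6 := (Nat.modEq_iff_dvd' (by omega)).1 k2.symm
    have k7 : r + 3 ∣ (r + 3) * 2 := Dvd.intro _ rfl
    have := (Nat.dvd_sub k7 k6)
    rwa [show (r + 3) * 2 - ((r + 3 - 2) * 2 - 1) = 5 by omega] at this
  have k6 := (Nat.prime_dvd_prime_iff_eq hp.out Nat.prime_five).1 k5
  refine ⟨k6, ?_⟩
  rw [hG, k6]

end H88.TIE
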