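import Mathlib
import Cfsg.Agent.Lib.Prim88.TIE
import Cfsg.Agent.Lib.Mod88.PlusOne
import Cfsg.Agent.Lib.Mod88.Red
import Cfsg.Agent.Lib.Char.More
import Cfsg.Agent.Lib.Char.InduceChar
import Cfsg.Agent.Lib.Deg.DefectZero

/-! The character theory of the configuration `TIE`, and the case of an odd complement. -/

set_option autoImplicit false

open MulAction Cfsg
open scoped MatrixGroups

namespace H88.TIE

open H88.Mod

variable {p : ℕ} [hp : Fact p.Prime] {G α : Type*} [Group G] [MulAction G α] [FaithfulSMul G α]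
  [Finite G] (T : TIE p G α)

omit [Finite G] in
theorem isConj_mul (g : T.E) (hg : g ≠ 1) (i : ZMod p) : IsConj (g : G) (T.c ^ i.val * g) := by
  have hm : (1 : ZMod p) - T.a g ≠ 0 := fun h => hg (T.a_eq_one g (Units.ext (sub_eq_zero.1 h).symm))
  refine isConj_iff.2 ⟨T.c ^ (i / (1 - T.a g)).val, H26.frame_ext T.e fun s => ?_⟩
  have h1 : (T.c ^ (i / (1 - T.a g)).val)⁻¹ • T.e s = T.e (s - i / (1 - T.a g)) := by
    rw [inv_smul_eq_iff, H26.frame_pow_val T.hc, sub_add_cancel]
  rw [mul_smul, mul_smul, h1, T.ha, H26.frame_pow_val T.hc, mul_smul, T.ha, H26.frame_pow_val T.hc]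
  congr 1
  field_simp
  ring

theorem exists_lin {ψ : G → ℂ} (hψ : IsIrrCharacter G ψ) (hd : charDegree ψ = p) :
    ψ 1 = p ∧ ∃ l : T.E → ℂ, (∀ g h, l (g * h) = l g * l h) ∧ l 1 = 1 ∧
      ∀ g : T.E, g ≠ 1 → ψ g = l g := by
  classical
  have h1 : ψ 1 = p := by
    obtain ⟨n, hn⟩ := H6.char_one_nat (H6.irr_isCharacter hψ)
    rw [charDegree, hn, Complex.natCast_re, Nat.floor_natCast] at hd
    rw [hn, hd]
  refine ⟨h1, ?_⟩
  have hvan : ∀ x ∈ Subgroup.zpowers T.c, x ≠ 1 → ψ x = 0 := fun x hx hx1 => by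
    refine H87.eq_zero_of_pow_factorization_dvd hψ hp.out ?_ ?_
    · rw [hd]
      have h2 : (Nat.card G).factorization p ≤ 1 := by
        by_contra h
        exact T.hsq ((pow_dvd_pow p (by omega)).trans (Nat.ordProj_dvd _ p))
      exact (pow_dvd_pow p h2).trans (pow_one p).dvd
    · rw [orderOf_eq_prime (orderOf_dvd_iff_pow_eq_one.1
        (T.orderOf_c ▸ orderOf_dvd_of_mem_zpowers hx)) hx1]
  have hcl := H6.irr_isClassFunction hψ
  obtain ⟨n, ρ, -, rfl⟩ := hψ
  letI := Fintype.ofFinite (Subgroup.zpowers T.c)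
  have hP : (Fintype.card (Subgroup.zpowers T.c) : ℂ) = p := by
    rw [← Nat.card_eq_fintype_card, Nat.card_zpowers, T.orderOf_c]
  have hp0 : (p : ℂ) ≠ 0 := Nat.cast_ne_zero.2 hp.out.ne_zero
  let τ : Representation ℂ (Subgroup.zpowers T.c) (Fin n → ℂ) := ρ.comp (Subgroup.subtype _)
  have h2 := finrank_Eig_cast (hP ▸ hp0) τ 1
  rw [Finset.sum_eq_single 1 (fun x _ hx => by
    rw [show LinearMap.trace ℂ _ (τ x) = ρ.character x from rfl,
      hvan x x.2 fun h => hx (Subtype.ext h), mul_zero]) (by simp), hP,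
    show LinearMap.trace ℂ _ (τ 1) = ρ.character 1 from rfl, h1] at h2
  have h3 : Module.finrank ℂ (Eig τ 1) = 1 := by
    have : (Module.finrank ℂ (Eig τ 1) : ℂ) = 1 := mul_left_cancel₀ hp0 (by simpa using h2)
    exact_mod_cast this
  obtain ⟨v, hv0, hv⟩ := finrank_eq_one_iff'.1 h3
  have hmem : ∀ g : T.E, ρ g v ∈ Eig τ 1 := fun g x => by
    have h4 : (g : G)⁻¹ * x * g ∈ Subgroup.zpowers T.c := by
      simpa using (Subgroup.mem_normalizer_iff.1 (T.E_le (T.E.inv_mem g.2)) x).1 x.2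
    have h5 : ρ ((g : G)⁻¹ * x * g) v = v := (v.2 ⟨_, h4⟩).trans (one_smul ℂ _)
    change ρ x (ρ g v) = _
    conv_rhs => rw [← h5]
    rw [← Module.End.mul_apply, ← Module.End.mul_apply, ← map_mul, ← map_mul]
    simp [mul_assoc]
  choose l hl using fun g : T.E => hv ⟨_, hmem g⟩
  have hl' : ∀ g : T.E, ρ g v = l g • (v : Fin n → ℂ) := fun g =>
    (congrArg Subtype.val (hl g)).symm
  have hv0' : (v : Fin n → ℂ) ≠ 0 := fun h => hv0 (Subtype.ext h)
  refine ⟨l, fun g h => smul_left_injective ℂ hv0' ?_, smul_left_injective ℂ hv0' ?_,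
    fun g hg => ?_⟩
  · simp only
    rw [← hl', Subgroup.coe_mul, map_mul, Module.End.mul_apply, hl', map_smul, hl', smul_smul,
      mul_comm]
  · simp only
    rw [← hl']; simp
  · have hproj : LinearMap.IsProj (Eig τ 1) (eigProj τ 1) :=
      ⟨eigProj_mem τ 1, fun v hv => eigProj_of_mem (hP ▸ hp0) hv⟩
    have h4 : ρ g * eigProj τ 1 = l g • eigProj τ 1 := LinearMap.ext fun w => by
      obtain ⟨c, hc⟩ := hv ⟨_, eigProj_mem τ 1 w⟩
      have h5 : eigProj τ 1 w = c • (v : Fin n → ℂ) := (congrArg Subtype.val hc).symm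
      rw [Module.End.mul_apply, LinearMap.smul_apply, h5, map_smul, hl', smul_comm]
    have h5 := congrArg (LinearMap.trace ℂ _) h4
    rw [map_smul, hproj.trace, h3, LinearMap.trace_mul_comm, eigProj, smul_mul_assoc,
      Finset.sum_mul, map_smul, map_sum, Finset.sum_congr rfl (g := fun _ => ρ.character g),
      Finset.sum_const, Finset.card_univ, nsmul_eq_mul, hP, smul_eq_mul,
      inv_mul_cancel_left₀ hp0] at h5
    · simpa using h5
    · rintro ⟨x, hx⟩ -
      obtain ⟨b, hb⟩ := (H26.frame_mem_zpowers T.hc).1 hx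
      have h6 : x = T.c ^ b.val := H26.frame_ext T.e fun j => by rw [hb, H26.frame_pow_val T.hc]
      rw [H6.classFun_of_isConj hcl (T.isConj_mul g hg b), ← h6]
      simp [Representation.character, τ]

include T in
theorem commutator_eq_top {ψ : G → ℂ} (hψ : IsIrrCharacter G ψ) (hd : charDegree ψ = p)
    (huniq : ∀ χ, IsIrrCharacter G χ → charDegree χ = p → χ = ψ) : commutator G = ⊤ := by
  obtain ⟨h1, l, hl1, hl2, hl3⟩ := T.exists_lin hψ hd
  rw [← Subgroup.index_eq_one, ← H6.card_hom_eq_index_commutator, Nat.card_eq_one_iff_exists]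
  refine ⟨1, fun μ => ?_⟩
  have h2 := huniq _ (H6.isIrrCharacter_mul_hom hψ μ) (by
    rw [← hd]; simp [charDegree])
  have h3 : T.E ≤ μ.ker := fun g hg => by
    by_cases h : (⟨g, hg⟩ : T.E) = 1
    · rw [show g = 1 from congrArg Subtype.val h]; exact one_mem _
    · have h4 := congrFun h2 g
      have h5 : ψ g ≠ 0 := by
        rw [show ψ g = l ⟨g, hg⟩ from hl3 _ h]
        intro h6
        have := hl1 ⟨g, hg⟩ ⟨g, hg⟩⁻¹
        rw [mul_inv_cancel, hl2, h6, zero_mul] at this
        exact one_ne_zero this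
      exact Units.ext ((mul_right_eq_self₀.1 h4).resolve_right h5)
  have h4 : μ.ker ≠ ⊥ := fun h => T.hne (le_bot_iff.1 (h ▸ h3))
  have h5 := T.sup_eq_top μ.ker h4
  rw [sup_eq_left.2 h3] at h5
  exact MonoidHom.ext fun g => show g ∈ μ.ker from h5 ▸ trivial

theorem exists_theta (h : commutator G = ⊤) (ho : Odd (Nat.card T.E)) {ψ : G → ℂ}
    (hψ : IsIrrCharacter G ψ) (hd : charDegree ψ = p) (lam : T.E →* ℂˣ) (hlam : lam * lam ≠ 1) :
    ∃ θ, IsIrrCharacter G θ ∧ θ 1 = p + 1 ∧
      ∀ g : T.E, g ≠ 1 → θ g = lam g + (lam g)⁻¹ := by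
  classical
  letI := Fintype.ofFinite G
  obtain ⟨h1, l, hl1, hl2, hl3⟩ := T.exists_lin hψ hd
  obtain ⟨u, hu, huE⟩ := T.exists_u
  set N := Subgroup.normalizer (T.E : Set G) with hN
  have hψE : ∀ g : T.E, g ≠ 1 → ψ g = 1 := fun g hg => by
    have h2 : l g⁻¹ = l g := by
      rw [← hl3 g hg, ← hl3 g⁻¹ (inv_ne_one.2 hg), Subgroup.coe_inv, ← T.inverts h hu huE g.2,
        H6.classFun_conj' (H6.irr_isClassFunction hψ)]
    have h3 : l g * l g = 1 := by
      conv_lhs => rw [← h2]; rw [h2.symm.symm]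
      rw [← hl2, ← mul_inv_cancel g, hl1, h2]
    have h4 : ∀ n : ℕ, l (g ^ n) = l g ^ n := fun n => by
      induction n with
      | zero => rw [pow_zero, pow_zero, hl2]
      | succ n ih => rw [pow_succ, pow_succ, hl1, ih]
    obtain ⟨m, hm⟩ := ho
    have h5 := h4 (Nat.card T.E)
    rw [pow_card_eq_one', hl2, hm, pow_succ, pow_mul, pow_two, h3, one_pow, one_mul] at h5
    rw [hl3 g hg, ← h5]
  let f : T.E → ℂ := (fun g => ((1 : T.E →* ℂˣ) g : ℂ)) - fun g => (lam g : ℂ)
  have hf : ∀ g, f g = 1 - lam g := fun g => by simp [f]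
  have he0 : (Nat.card T.E : ℂ) ≠ 0 := Nat.cast_ne_zero.2 Nat.card_pos.ne'
  have hΘ : ∀ x : T.E, indFun T.E f x = f x + f x⁻¹ := by
    intro x
    by_cases hx : x = 1
    · rw [hx, Subgroup.coe_one, H7.indFun_one, inv_one, hf]; simp
    refine mul_left_cancel₀ he0 ?_
    rw [H7.card_mul_indFun]
    have h2 : ∀ g : G, extendByZero T.E f (g⁻¹ * x * g)
        = (if g ∈ T.E then f x else 0) + if g ∈ N ∧ g ∉ T.E then f x⁻¹ else 0 := by
      intro g
      by_cases h3 : g ∈ T.E
      · have h4 : g⁻¹ * x * g = x := by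
          have := congrArg Subtype.val (T.comm x ⟨g, h3⟩)
          simp only [Subgroup.coe_mul] at this
          rw [mul_assoc, this, inv_mul_cancel_left]
        rw [h4, H7.extendByZero_coe, if_pos h3, if_neg (by tauto), add_zero]
      by_cases h4 : g ∈ N
      · rw [T.inverts h h4 h3 x.2, ← Subgroup.coe_inv, H7.extendByZero_coe, if_neg h3,
          if_pos ⟨h4, h3⟩, zero_add]
      · rw [if_neg h3, if_neg (by tauto), add_zero, H7.extendByZero_of_not_mem]
        intro h5
        exact hx (Subtype.ext (T.hTI g⁻¹ (fun h6 => h4 (inv_mem_iff.1 h6)) x x.2 (by simpa using h5)))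
    have h3 : (Finset.univ.filter fun g : G => g ∈ T.E).card = Nat.card T.E := by
      rw [Nat.card_eq_fintype_card, Fintype.card_subtype]
    have h4 : (Finset.univ.filter fun g : G => g ∈ N ∧ g ∉ T.E).card = Nat.card T.E := by
      have h5 := Finset.card_filter_add_card_filter_not (s := Finset.univ.filter fun g : G => g ∈ N)
        (fun g => g ∈ T.E)
      have h6 : (Finset.univ.filter fun g : G => g ∈ N).card = 2 * Nat.card T.E := by
        rw [← T.hNE, Nat.card_eq_fintype_card, Fintype.card_subtype]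
      rw [Finset.filter_filter, Finset.filter_filter, h6, Finset.filter_congr
        (q := fun g : G => g ∈ T.E) fun g _ => ⟨fun h => h.2, fun h => ⟨Subgroup.le_normalizer h, h⟩⟩,
        h3] at h5
      omega
    simp only [h2, Finset.sum_add_distrib, Finset.sum_ite, Finset.sum_const_zero, add_zero,
      Finset.sum_const, h3, h4, nsmul_eq_mul, mul_add]
  have hΘ' : (fun x : T.E => indFun T.E f x) = f + ((fun g => ((1 : T.E →* ℂˣ) g : ℂ)) -
      fun g => (lam⁻¹ g : ℂ)) := funext fun x => by rw [hΘ]; simp [f]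
  have hlam1 : lam ≠ 1 := hom_ne_one hlam
  have hcl := H7.isClassFunction_indFun T.E f
  have i1 : classInner (indFun T.E f) (indFun T.E f) = 3 := by
    rw [H7.classInner_indFun_left _ _ hcl, hΘ']
    simp only [f, H7.classInner_add_right, H7.classInner_sub_left, H7.classInner_sub_right,
      H6.hom_inner, if_true, if_neg hlam1, if_neg hlam1.symm, if_neg (hom_ne_inv hlam),
      if_neg (hom_inv_ne_one hlam1).symm]
    norm_num
  have i2 : classInner (indFun T.E f) (fun _ => 1) = 1 := by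
    rw [H7.classInner_indFun_left _ _ (H7.isClassFunction_const 1)]
    change classInner f (fun g => ((1 : T.E →* ℂˣ) g : ℂ)) = 1
    simp only [f, H7.classInner_sub_left, H6.hom_inner, if_true, if_neg hlam1, sub_zero]
  have i3 : classInner (indFun T.E f) ψ = 1 := by
    rw [← i2, H7.classInner_indFun_left _ _ (H7.isClassFunction_const 1),
      H7.classInner_indFun_left _ _ (H6.irr_isClassFunction hψ), classInner, classInner]
    congr 1
    refine Finset.sum_congr rfl fun g _ => ?_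
    by_cases hg : g = 1
    · rw [hg, hf]; simp
    · rw [hψE g hg]
  have hψ1 : ψ ≠ fun _ => 1 := fun h2 => by
    rw [h2] at h1
    change (1 : ℂ) = p at h1
    exact hp.out.one_lt.ne (by exact_mod_cast h1)
  have i4 := H6.irr_inner_ne hψ H6.isIrrCharacter_one hψ1
  have i5 := H6.irr_inner_ne H6.isIrrCharacter_one hψ hψ1.symm
  have i6 : classInner (fun _ => 1) (indFun T.E f) = 1 := by rw [← H7.conj_classInner, i2, map_one]
  have i7 : classInner ψ (indFun T.E f) = 1 := by rw [← H7.conj_classInner, i3, map_one]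
  have hθ1 : ((fun _ => 1) + ψ - indFun T.E f : G → ℂ) 1 = p + 1 := by
    have := hΘ 1
    rw [Subgroup.coe_one, inv_one, hf] at this
    simp [this, h1, add_comm]
  refine ⟨(fun _ => 1) + ψ - indFun T.E f, H6.isIrr_of_gen_of_inner_self
    (H6.isGen_sub (H6.isGen_add H6.isGen_one (H6.irr_isGen hψ))
      (H7.isGeneralizedCharacter_indFun _ (H6.isGen_sub (H6.char_isGen (H6.isCharacter_hom 1))
        (H6.char_isGen (H6.isCharacter_hom lam))))) ?_ ?_, hθ1, fun g hg => ?_⟩
  · simp only [H7.classInner_add_right, H7.classInner_add_left, H7.classInner_sub_left,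
      H7.classInner_sub_right, i1, i2, i3, i4, i5, i6, i7, H7.classInner_one_one,
      H6.irr_inner_self hψ]
    norm_num
  · rw [hθ1]
    simp only [Complex.add_re, Complex.natCast_re, Complex.one_re]
    positivity
  · simp only [Pi.sub_apply, Pi.add_apply, hψE g hg, hΘ, hf, map_inv, Units.val_inv_eq_inv_val]
    ring

theorem exists_lift {E : Type*} [Group E] [Finite E] [IsCyclic E] (O : ValuationSubring ℂ)
    {k : Type*} [Field k] [CharP k p] (φ : O →+* k) (hφ : ∀ x, φ x ≠ 0 → IsUnit x)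
    (hE : ¬ p ∣ Nat.card E) (β : E →* kˣ) :
    ∃ lam : E →* ℂˣ, ∀ g, ∃ x : O, (x : ℂ) = lam g ∧ φ x = β g := by
  obtain ⟨g0, hg0⟩ := IsCyclic.exists_generator (α := E)
  have he0 : Nat.card E ≠ 0 := Nat.card_pos.ne'
  haveI : NeZero (Nat.card E) := ⟨he0⟩
  have hζ := Complex.isPrimitiveRoot_exp _ he0
  set ζ := Complex.exp (2 * Real.pi * Complex.I / (Nat.card E : ℕ)) with hζd
  have hζO : ζ ∈ O := by
    rcases O.mem_or_inv_mem ζ with h | h
    · exact h
    · have h1 : ζ = ζ⁻¹ ^ (Nat.card E - 1) := by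
        rw [inv_pow, eq_comm, inv_eq_iff_eq_inv, eq_comm]
        refine inv_eq_of_mul_eq_one_right ?_
        rw [← pow_succ', Nat.sub_add_cancel Nat.card_pos, hζ.pow_eq_one]
      rw [h1]
      exact O.pow_mem h _
  let z : O := ⟨ζ, hζO⟩
  have hz1 : z ^ Nat.card E = 1 := Subtype.ext hζ.pow_eq_one
  have hz : IsPrimitiveRoot (φ z) (Nat.card E) := by
    refine ⟨by rw [← map_pow, hz1, map_one], fun j hj => hζ.dvd_of_pow_eq_one j ?_⟩
    have h1 : IsUnit (∑ i ∈ Finset.range (Nat.card E), (z ^ j) ^ i) := by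
      apply hφ
      simp only [map_sum, map_pow, hj, one_pow, Finset.sum_const, Finset.card_range, nsmul_eq_mul,
        mul_one]
      rwa [Ne, CharP.cast_eq_zero_iff k p]
    have h2 := mul_geom_sum (z ^ j) (Nat.card E)
    rw [← pow_mul, mul_comm j, pow_mul, hz1, one_pow, sub_self] at h2
    exact congrArg Subtype.val (sub_eq_zero.1 (h1.mul_left_eq_zero.1 h2))
  obtain ⟨j, -, hj⟩ := hz.eq_pow_of_pow_eq_one (ξ := (β g0 : k)) (by
    rw [← Units.val_pow_eq_pow_val, ← map_pow, pow_card_eq_one', map_one, Units.val_one])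
  let w : ℂˣ := Units.mk0 ζ (hζ.ne_zero he0) ^ j
  have hw : orderOf w ∣ orderOf g0 := by
    rw [orderOf_eq_card_of_forall_mem_zpowers hg0, orderOf_dvd_iff_pow_eq_one, ← pow_mul,
      mul_comm, pow_mul, show Units.mk0 ζ (hζ.ne_zero he0) ^ Nat.card E = 1 from
        Units.ext hζ.pow_eq_one, one_pow]
  refine ⟨monoidHomOfForallMemZpowers hg0 hw, fun g => ?_⟩
  obtain ⟨i, rfl⟩ := mem_powers_iff_mem_zpowers.mpr (hg0 g)
  refine ⟨(z ^ j) ^ i, ?_, ?_⟩
  · simp only
    rw [map_pow, monoidHomOfForallMemZpowers_apply_gen]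
    simp [w, z]
  · simp only
    rw [map_pow, map_pow, hj, map_pow, Units.val_pow_eq_pow_val]

theorem odd_case (h : commutator G = ⊤) (ho : Odd (Nat.card T.E)) {ψ : G → ℂ}
    (hψ : IsIrrCharacter G ψ) (hd : charDegree ψ = p) :
    6 < p ∧ Nonempty (G ≃* PSL(2, ZMod p)) := by
  classical
  haveI := T.isSimpleGroup h
  haveI := T.isCyclic
  letI := Fintype.ofFinite T.E
  letI : Fintype α := Fintype.ofEquiv _ T.e
  obtain ⟨t, ht⟩ := T.exists_t
  have hp1 := hp.out.one_lt
  have he1 : 1 < Nat.card T.E := (Subgroup.one_lt_card_iff_ne_bot _).2 T.hne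
  have hp7 : 6 < p := by
    by_contra h7
    obtain ⟨m, hm⟩ := ho
    rw [hm] at ht he1
    have h2 : t ≠ 0 := fun h => by rw [h] at ht; omega
    have h3 : 1 * (2 * m + 1) ≤ t * (2 * m + 1) := Nat.mul_le_mul_right _ (by omega)
    have h4 : p = 4 ∨ p = 5 ∨ p = 6 := by omega
    rcases h4 with rfl | rfl | rfl
    · exact absurd hp.out (by decide)
    · have : m = 1 := by omega
      rw [this] at ht; omega
    · exact absurd hp.out (by decide)
  have hE : ¬ p ∣ Nat.card T.E := fun h1 =>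
    absurd (Nat.le_of_dvd (by omega) (ht ▸ Dvd.dvd.mul_left h1 t)) (by omega)
  have ha2 : T.a * T.a ≠ 1 := fun h1 => by
    obtain ⟨g, hg⟩ := Subgroup.ne_bot_iff_exists_ne_one.1 T.hne
    have h2 : g * g = 1 := T.a_eq_one _ (by rw [map_mul]; exact DFunLike.congr_fun h1 g)
    obtain ⟨m, hm⟩ := ho
    have h3 := pow_card_eq_one' (x := g)
    rw [hm, pow_succ, pow_mul, pow_two, h2, one_pow, one_mul] at h3
    exact hg h3
  obtain ⟨O, k, _, _, _, φ, hφ⟩ := exists_residue hp.out
  obtain ⟨lam, hlam⟩ := exists_lift O φ hφ hE (slope k T.a)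
  obtain ⟨θ, ⟨n, ρ, -, rfl⟩, h1, h2⟩ := T.exists_theta h ho hψ hd lam fun h1 =>
    ha2 (MonoidHom.ext fun g => by
      obtain ⟨x, k1, k2⟩ := hlam (g * g)
      have k3 : lam (g * g) = 1 := by rw [map_mul]; exact DFunLike.congr_fun h1 g
      rw [k3, Units.val_one] at k1
      rw [show x = 1 from Subtype.ext k1, map_one] at k2
      rw [MonoidHom.mul_apply, ← map_mul]
      exact (slope_eq_one_iff (k := k) T.a _).1 (Units.ext k2.symm))
  obtain ⟨b, σ, hσ⟩ := exists_integral_form O ρ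
  have hn : Module.finrank ℂ (Fin n → ℂ) = p + 1 := by
    rw [Representation.char_one] at h1
    exact_mod_cast h1
  obtain ⟨s, hs⟩ := exists_pgl_of_plus_one hp7 T.hc T.orderOf_c T.hsq T.not_affine T.exists_mul
    T.a T.ha T.conj_c T.a_eq_one ha2 (by rwa [← Nat.card_eq_fintype_card]) (redRep φ σ)
    (by rw [Module.finrank_fintype_fun_eq_card, Fintype.card_fin, hn]) (fun g hg => by
      obtain ⟨x, k1, k2⟩ := hlam g
      obtain ⟨y, k3, k4⟩ := hlam g⁻¹
      have k5 : (σ g).trace = x + y := Subtype.ext (by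
        have k6 := h2 g hg
        rw [Representation.character, LinearMap.trace_eq_matrix_trace ℂ b, hσ,
          ← AddMonoidHom.map_trace] at k6
        rw [map_inv] at k3
        rw [← k1, ← k3] at k6
        exact k6)
      rw [redRep_apply, Matrix.trace_toLin'_eq, ← AddMonoidHom.map_trace, k5, map_add, k2, k4,
        map_inv])
  have hker : s.ker = ⊥ := (Subgroup.Normal.eq_bot_or_eq_top inferInstance).resolve_right
    fun h3 => hs (show T.c ∈ s.ker from h3 ▸ trivial)
  refine ⟨hp7, ?_⟩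
  rcases of_pgl (by omega) T.orderOf_c T.hsq s hs with h3 | ⟨r, h3, h4⟩ | ⟨r, h3, h4⟩
  · refine absurd (fun g => H26.affine_of_conj T.hc ?_) T.not_affine
    obtain ⟨j, hj⟩ := h3 g
    exact ⟨j, (MonoidHom.ker_eq_bot_iff s).1 hker (by rw [map_zpow]; exact hj)⟩
  · exact ⟨MulEquiv.ofBijective r ⟨(MonoidHom.ker_eq_bot_iff r).1 (h4 ▸ hker), h3⟩⟩
  · exfalso
    have h5 := H10.index_range_toPGL (ι := Fin 2) (F := ZMod p)
    have h6 : Nat.gcd 2 (p - 1) = 2 :=
      Nat.gcd_eq_left (hp.out.even_sub_one (by omega)).two_dvd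
    rw [Fintype.card_fin, Nat.card_zmod, h6, ← Subgroup.index_comap_of_surjective _ h3] at h5
    rcases (Subgroup.normal_of_index_eq_two h5).eq_bot_or_eq_top with h7 | h7
    · rw [h7, Subgroup.index_bot] at h5
      have h8 := orderOf_dvd_natCard T.c
      rw [T.orderOf_c, h5] at h8
      exact absurd (Nat.le_of_dvd two_pos h8) (by omega)
    · rw [h7, Subgroup.index_top] at h5
      omega

end H88.TIE
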